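import Mathlib
import Cfsg.Agent.Lib.Helper46.FP.Defs
import Cfsg.Agent.Lib.Helper37.FP.Easy

set_option autoImplicit false

/-!
# S3814 team project (coordinator helper46): actions on a group of prime order

* `exists_commute_of_rank_two` : a `C_c × C_c` normalizing `⟨n⟩` (`n` of prime order `a ≠ c`)
  contains `e ≠ 1` centralizing `n` (`Aut(C_a)` is cyclic).
* `dvd_sub_one_of_conj` : `e` of prime order `c` normalizing but not centralizing `⟨n⟩`, `n` of
  prime order `a`: then `c ∣ a - 1`.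
* `conj_mem_zpowers_of_mem` : `e n e⁻¹ ∈ ⟨n⟩` gives `e w e⁻¹ ∈ ⟨n⟩` for all `w ∈ ⟨n⟩`.
* `commute_of_commute_pow` : `n` of prime order, `e` commutes with a nontrivial element of
  `⟨n⟩`: then `e` commutes with `n`.
-/

namespace Cfsg.Agent.Lib.Helper37.FP

universe u

variable {G : Type u} [Group G]

theorem conj_mem_zpowers_of_mem {n e : G} (h : e * n * e⁻¹ ∈ Subgroup.zpowers n) :
    ∀ w ∈ Subgroup.zpowers n, e * w * e⁻¹ ∈ Subgroup.zpowers n := by
  intro w hw
  obtain ⟨i, rfl⟩ := Subgroup.mem_zpowers_iff.1 hw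
  rw [← conj_zpow]
  exact Subgroup.zpow_mem _ h i

theorem commute_of_commute_pow [Finite G] {n e w : G} (hn : (orderOf n).Prime)
    (hw : w ∈ Subgroup.zpowers n) (hw1 : w ≠ 1) (hew : e * w = w * e) : e * n = n * e := by
  have h1 : n ∈ Subgroup.zpowers w := mem_zpowers_of_prime_order hn hw hw1
  obtain ⟨i, rfl⟩ := Subgroup.mem_zpowers_iff.1 h1
  exact ((show Commute e w from hew).zpow_right i).eq

theorem exists_commute_of_rank_two [Finite G] {n z1 z2 : G} {a c : ℕ} (ha : a.Prime)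
    (hc : c.Prime) (hac : a ≠ c) (hon : orderOf n = a) (hz1 : orderOf z1 = c)
    (hz2 : orderOf z2 = c) (hcomm : z1 * z2 = z2 * z1) (hz : z2 ∉ Subgroup.zpowers z1)
    (h1 : z1 * n * z1⁻¹ ∈ Subgroup.zpowers n) (h2 : z2 * n * z2⁻¹ ∈ Subgroup.zpowers n) :
    ∃ e ∈ Subgroup.closure ({z1, z2} : Set G), e ≠ 1 ∧ e * n = n * e := by
  have hn1 : n ≠ 1 := by
    intro h
    rw [h, orderOf_one] at hon
    exact ha.one_lt.ne hon
  have hWne : Subgroup.zpowers n ≠ ⊥ := by
    intro h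
    have : n ∈ Subgroup.zpowers n := Subgroup.mem_zpowers n
    rw [h] at this
    exact hn1 (Subgroup.mem_bot.1 this)
  have hcard : ¬ c ∣ Nat.card (Subgroup.zpowers n) := by
    rw [Nat.card_zpowers, hon]
    intro h
    exact hac ((Nat.prime_dvd_prime_iff_eq hc ha).1 h).symm
  have hsolv : Group.IsSolvable (Subgroup.zpowers n) := by
    apply Group.isSolvable_of_comm
    rintro ⟨x, hx⟩ ⟨y, hy⟩
    obtain ⟨i, rfl⟩ := Subgroup.mem_zpowers_iff.1 hx
    obtain ⟨j, rfl⟩ := Subgroup.mem_zpowers_iff.1 hy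
    apply Subtype.ext
    exact (((Commute.refl n).zpow_right j).zpow_left i).eq
  obtain ⟨e, he, he1, w, hw, hw1, hew⟩ := tool_T1 hc hz1 hz2 hcomm hz hWne hcard hsolv
    (conj_mem_zpowers_of_mem h1) (conj_mem_zpowers_of_mem h2)
  exact ⟨e, he, he1, commute_of_commute_pow (by rw [hon]; exact ha) hw hw1 hew⟩

theorem dvd_sub_one_of_conj {n e : G} {a c : ℕ} (ha : a.Prime) (hc : c.Prime)
    (hon : orderOf n = a) (hoe : orderOf e = c)
    (hnorm : e * n * e⁻¹ ∈ Subgroup.zpowers n) (hne : e * n ≠ n * e) : c ∣ a - 1 := by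
  haveI : Fact a.Prime := ⟨ha⟩
  have hfin : IsOfFinOrder n := by
    rw [← orderOf_pos_iff, hon]
    exact ha.pos
  obtain ⟨k, hk⟩ := (Submonoid.mem_powers_iff _ _).1 (hfin.mem_powers_iff_mem_zpowers.2 hnorm)
  have hpow : ∀ i : ℕ, e ^ i * n * (e ^ i)⁻¹ = n ^ (k ^ i) := by
    intro i
    induction i with
    | zero => simp
    | succ i ih =>
      have h1 : e ^ (i + 1) * n * (e ^ (i + 1))⁻¹ = e * (e ^ i * n * (e ^ i)⁻¹) * e⁻¹ := by
        rw [pow_succ']; group
      rw [h1, ih, ← conj_pow, ← hk, ← pow_mul, pow_succ']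
  have hec : e ^ c = 1 := by rw [← hoe]; exact pow_orderOf_eq_one e
  have h1 := hpow c
  rw [hec, one_mul, inv_one, mul_one] at h1
  -- `k^c ≡ 1 [MOD a]`
  have h2 : k ^ c ≡ 1 [MOD a] := by
    have h3 : n ^ (k ^ c) = n ^ 1 := by rw [pow_one]; exact h1.symm
    rw [pow_eq_pow_iff_modEq, hon] at h3
    exact h3
  have h4 : ¬ k ≡ 1 [MOD a] := by
    intro h
    have h5 : n ^ k = n ^ 1 := by rw [pow_eq_pow_iff_modEq, hon]; exact h
    rw [pow_one, hk] at h5
    exact hne (mul_inv_eq_iff_eq_mul.1 h5)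
  have h6 : ((k : ZMod a)) ^ c = 1 := by
    have := (ZMod.natCast_eq_natCast_iff (k ^ c) 1 a).2 h2
    simpa using this
  have h7 : (k : ZMod a) ≠ 1 := by
    intro h
    apply h4
    have h8 : ((k : ℕ) : ZMod a) = ((1 : ℕ) : ZMod a) := by simpa using h
    exact (ZMod.natCast_eq_natCast_iff k 1 a).1 h8
  let u : (ZMod a)ˣ := Units.ofPowEqOne (k : ZMod a) c h6 hc.ne_zero
  have hu : u ^ c = 1 := by
    apply Units.ext
    rw [Units.val_pow_eq_pow_val]
    exact h6
  have hu1 : u ≠ 1 := by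
    intro h
    apply h7
    have := congrArg Units.val h
    exact this
  have hou : orderOf u = c := by
    rcases (Nat.dvd_prime hc).1 (orderOf_dvd_of_pow_eq_one hu) with h | h
    · exact absurd (orderOf_eq_one_iff.1 h) hu1
    · exact h
  have hcard : Fintype.card (ZMod a)ˣ = a - 1 := by
    rw [ZMod.card_units_eq_totient, Nat.totient_prime ha]
  rw [← hou, ← hcard]
  exact orderOf_dvd_card

end Cfsg.Agent.Lib.Helper37.FP
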