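import Mathlib
import Cfsg.Agent.Lib.Helper46.FP.Defs
import Cfsg.Agent.Lib.Helper37.FP.Tools

set_option autoImplicit false

/-!
# S3814 team project (coordinator helper46): structure part of LemY (cut LY1)

`lemY_struct` : `P` an `a`-group (`a` odd), `y` of prime order `b ≠ a`, `T ∋ y` a set of elements
normalizing `P` and `⟨y⟩`, `P` minimal among the `T`-invariant subgroups not centralized by `y`.
Then `P` has exponent `a`, commutators of `P` are central in `P` and centralized by `y`, and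
`P` is generated by the `[u, y]`.
-/

namespace Cfsg.Agent.Lib.Helper37.FP

open scoped commutatorElement

universe u

/-- Conjugation by `g` maps `closure s` into `K` as soon as it maps `s` into `K`. -/
theorem conj_closure_mem {G : Type u} [Group G] (g : G) (s : Set G) (K : Subgroup G)
    (h : ∀ x ∈ s, g * x * g⁻¹ ∈ K) : ∀ x ∈ Subgroup.closure s, g * x * g⁻¹ ∈ K := by
  have h1 : Subgroup.closure s ≤ K.comap (MulAut.conj g).toMonoidHom := by
    rw [Subgroup.closure_le]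
    intro x hx
    simpa using h x hx
  intro x hx
  simpa using h1 hx

/-- Class two: `v u = z u v` with `z` commuting with `u, v` gives `v^k u = z^k u v^k`. -/
theorem class2_swap {G : Type u} [Group G] (u v z : G) (hz : v * u = z * u * v)
    (hzv : Commute z v) (k : ℕ) : v ^ k * u = z ^ k * u * v ^ k := by
  induction k with
  | zero => simp
  | succ k ih =>
    have h1 : v * z ^ k = z ^ k * v := ((hzv.pow_left k).eq).symm
    calc v ^ (k + 1) * u = v * (v ^ k * u) := by rw [pow_succ', mul_assoc]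
      _ = v * (z ^ k * u * v ^ k) := by rw [ih]
      _ = (v * z ^ k) * u * v ^ k := by simp only [mul_assoc]
      _ = z ^ k * (v * u) * v ^ k := by rw [h1]; simp only [mul_assoc]
      _ = z ^ k * (z * u * v) * v ^ k := by rw [hz]
      _ = z ^ (k + 1) * u * v ^ (k + 1) := by
          rw [pow_succ, pow_succ']; simp only [mul_assoc]

/-- Class two: `(u v)^n = z^(n choose 2) u^n v^n`. -/
theorem class2_pow {G : Type u} [Group G] (u v z : G) (hz : v * u = z * u * v)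
    (hzu : Commute z u) (hzv : Commute z v) (n : ℕ) :
    (u * v) ^ n = z ^ (n.choose 2) * u ^ n * v ^ n := by
  induction n with
  | zero => simp
  | succ n ih =>
    have h1 := class2_swap u v z hz hzv n
    have h2 : u ^ n * z ^ n = z ^ n * u ^ n := (((hzu.pow_left n).pow_right n).eq).symm
    have h3 : (n + 1).choose 2 = n.choose 2 + n := by
      rw [Nat.choose_succ_succ', Nat.choose_one_right, add_comm]
    calc (u * v) ^ (n + 1) = (u * v) ^ n * (u * v) := pow_succ _ _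
      _ = z ^ (n.choose 2) * u ^ n * v ^ n * (u * v) := by rw [ih]
      _ = z ^ (n.choose 2) * u ^ n * (v ^ n * u) * v := by simp only [mul_assoc]
      _ = z ^ (n.choose 2) * u ^ n * (z ^ n * u * v ^ n) * v := by rw [h1]
      _ = z ^ (n.choose 2) * (u ^ n * z ^ n) * u * v ^ n * v := by simp only [mul_assoc]
      _ = z ^ (n.choose 2) * (z ^ n * u ^ n) * u * v ^ n * v := by rw [h2]
      _ = z ^ ((n + 1).choose 2) * u ^ (n + 1) * v ^ (n + 1) := by
          rw [h3, pow_add, pow_succ, pow_succ]; simp only [mul_assoc]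

theorem lemY_struct {G : Type u} [Group G] [Finite G] (a b : ℕ) (ha : a.Prime) (hb : b.Prime)
    (hab : a ≠ b) (ha2 : a ≠ 2) (P : Subgroup G) (hP : IsPGroup a P) (y : G)
    (hy : orderOf y = b) (T : Set G) (hyT : y ∈ T)
    (hTP : ∀ g ∈ T, ∀ x ∈ P, g * x * g⁻¹ ∈ P)
    (hTy : ∀ g ∈ T, g * y * g⁻¹ ∈ Subgroup.zpowers y)
    (hmin : ∀ X : Subgroup G, X ≤ P → X ≠ P → (∀ g ∈ T, ∀ x ∈ X, g * x * g⁻¹ ∈ X) →
      ∀ x ∈ X, y * x = x * y)
    (hnc : ∃ x ∈ P, y * x ≠ x * y) :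
    (∀ u ∈ P, u ^ a = 1) ∧
    (∀ u ∈ P, ∀ v ∈ P, ∀ w ∈ P, (u * v * u⁻¹ * v⁻¹) * w = w * (u * v * u⁻¹ * v⁻¹)) ∧
    (∀ u ∈ P, ∀ v ∈ P, y * (u * v * u⁻¹ * v⁻¹) = (u * v * u⁻¹ * v⁻¹) * y) ∧
    (∀ K : Subgroup G, (∀ u ∈ P, u * y * u⁻¹ * y⁻¹ ∈ K) → P ≤ K) := by
  classical
  haveI : Fact a.Prime := ⟨ha⟩
  have hyP : ∀ x ∈ P, y * x * y⁻¹ ∈ P := hTP y hyT
  have hyb : y ^ b = 1 := by rw [← hy]; exact pow_orderOf_eq_one y
  have hcP : ∀ u ∈ P, u * y * u⁻¹ * y⁻¹ ∈ P := by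
    intro u hu
    have h1 := hyP u⁻¹ (P.inv_mem hu)
    have : u * y * u⁻¹ * y⁻¹ = u * (y * u⁻¹ * y⁻¹) := by group
    rw [this]; exact P.mul_mem hu h1
  set S : Set G := {w | ∃ u ∈ P, w = u * y * u⁻¹ * y⁻¹} with hS
  set R : Subgroup G := Subgroup.closure S with hR
  have hRP : R ≤ P := by
    rw [hR, Subgroup.closure_le]
    rintro w ⟨u, hu, rfl⟩
    exact hcP u hu
  have hcR : ∀ u ∈ P, u * y * u⁻¹ * y⁻¹ ∈ R := fun u hu => Subgroup.subset_closure ⟨u, hu, rfl⟩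
  have hyR : ∀ x ∈ R, y * x * y⁻¹ ∈ R := by
    apply conj_closure_mem
    rintro w ⟨u, hu, rfl⟩
    have : y * (u * y * u⁻¹ * y⁻¹) * y⁻¹ = (y * u * y⁻¹) * y * (y * u * y⁻¹)⁻¹ * y⁻¹ := by group
    rw [this]
    exact hcR _ (hyP u hu)
  have hpowR : ∀ n : ℕ, ∀ u ∈ P, u * y ^ n * u⁻¹ * (y ^ n)⁻¹ ∈ R := by
    intro n
    induction n with
    | zero => intro u hu; simp
    | succ n ih =>
      intro u hu
      have : u * y ^ (n + 1) * u⁻¹ * (y ^ (n + 1))⁻¹
          = (u * y * u⁻¹ * y⁻¹) * (y * (u * y ^ n * u⁻¹ * (y ^ n)⁻¹) * y⁻¹) := by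
        rw [pow_succ']; group
      rw [this]
      exact R.mul_mem (hcR u hu) (hyR _ (ih u hu))
  have hTR : ∀ g ∈ T, ∀ x ∈ R, g * x * g⁻¹ ∈ R := by
    intro g hg
    apply conj_closure_mem
    rintro w ⟨u, hu, rfl⟩
    obtain ⟨n, hn⟩ : ∃ n : ℕ, y ^ n = g * y * g⁻¹ := by
      have h1 := hTy g hg
      have hfin : IsOfFinOrder y := isOfFinOrder_of_finite y
      rw [← hfin.mem_powers_iff_mem_zpowers] at h1
      exact (Submonoid.mem_powers_iff _ _).1 h1
    have : g * (u * y * u⁻¹ * y⁻¹) * g⁻¹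
        = (g * u * g⁻¹) * (g * y * g⁻¹) * (g * u * g⁻¹)⁻¹ * (g * y * g⁻¹)⁻¹ := by group
    rw [this, ← hn]
    exact hpowR n _ (hTP g hg u hu)
  have hRP' : R = P := by
    by_contra hne
    have hcen := hmin R hRP hne hTR
    obtain ⟨x, hx, hxy⟩ := hnc
    apply hxy
    have hwR : x * y * x⁻¹ * y⁻¹ ∈ R := hcR x hx
    have hwy : Commute (x * y * x⁻¹ * y⁻¹) y := (hcen _ hwR).symm
    have h1 : x * y * x⁻¹ = (x * y * x⁻¹ * y⁻¹) * y := by group
    have h2 : (x * y * x⁻¹) ^ b = 1 := by rw [conj_pow, hyb]; group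
    have h3 : (x * y * x⁻¹ * y⁻¹) ^ b = 1 := by
      rw [h1, hwy.mul_pow, hyb, mul_one] at h2; exact h2
    obtain ⟨k, hk⟩ := hP ⟨x * y * x⁻¹ * y⁻¹, hRP hwR⟩
    have hk' : (x * y * x⁻¹ * y⁻¹) ^ (a ^ k) = 1 := by
      have := congrArg Subtype.val hk
      simpa using this
    have hcop : (a ^ k).Coprime b := Nat.Coprime.pow_left k ((Nat.coprime_primes ha hb).2 hab)
    have hw1 : x * y * x⁻¹ * y⁻¹ = 1 :=
      Cfsg.Agent.Lib.Helper87.eq_one_of_pow_coprime hk' h3 hcop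
    calc y * x = (x * y * x⁻¹ * y⁻¹)⁻¹ * (x * y) := by group
      _ = x * y := by rw [hw1]; group
  have hgen : ∀ K : Subgroup G, (∀ u ∈ P, u * y * u⁻¹ * y⁻¹ ∈ K) → P ≤ K := by
    intro K hK
    rw [← hRP', hR, Subgroup.closure_le]
    rintro w ⟨u, hu, rfl⟩
    exact hK u hu
  have hcent : ∀ X : Subgroup G, X ≤ P → X ≠ P → (∀ g ∈ T, ∀ x ∈ X, g * x * g⁻¹ ∈ X) →
      (∀ u ∈ P, ∀ x ∈ X, u * x * u⁻¹ ∈ X) →
      (∀ x ∈ X, y * x = x * y) ∧ (∀ x ∈ X, ∀ w ∈ P, x * w = w * x) := by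
    intro X hXP hXne hXT hXPinv
    have hXy := hmin X hXP hXne hXT
    refine ⟨hXy, ?_⟩
    intro x hx w hw
    have hle : P ≤ Subgroup.centralizer {x} := by
      apply hgen
      intro u hu
      rw [Subgroup.mem_centralizer_singleton_iff]
      have hx' : u⁻¹ * x * u ∈ X := by
        have := hXPinv u⁻¹ (P.inv_mem hu) x hx
        simpa using this
      have e1 : y * x = x * y := hXy x hx
      have e2 : y * (u⁻¹ * x * u) = (u⁻¹ * x * u) * y := hXy _ hx'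
      have e1' : y⁻¹ * x = x * y⁻¹ := by
        calc y⁻¹ * x = y⁻¹ * (x * y) * y⁻¹ := by group
          _ = y⁻¹ * (y * x) * y⁻¹ := by rw [e1]
          _ = x * y⁻¹ := by group
      calc u * y * u⁻¹ * y⁻¹ * x = u * y * u⁻¹ * (y⁻¹ * x) := by group
        _ = u * y * u⁻¹ * (x * y⁻¹) := by rw [e1']
        _ = u * (y * (u⁻¹ * x * u)) * u⁻¹ * y⁻¹ := by group
        _ = u * ((u⁻¹ * x * u) * y) * u⁻¹ * y⁻¹ := by rw [e2]
        _ = x * (u * y * u⁻¹ * y⁻¹) := by group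
    have := hle hw
    rw [Subgroup.mem_centralizer_singleton_iff] at this
    exact this.symm
  have hPne : P ≠ ⊥ := by
    rintro h
    obtain ⟨x, hx, hxy⟩ := hnc
    rw [h, Subgroup.mem_bot] at hx
    subst hx
    simp at hxy
  have hnt : Nontrivial P := P.nontrivial_iff_ne_bot.mpr hPne
  have hsolv : Group.IsSolvable P := by
    have : Group.IsNilpotent P := hP.isNilpotent
    infer_instance
  have hlt : ⁅P, P⁆ < P := by
    have h1 := Group.IsSolvable.commutator_lt_top_of_nontrivial (G := P)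
    rw [← P.map_subtype_commutator]
    have h2 := Subgroup.map_subtype_lt_map_subtype.mpr h1
    rwa [← MonoidHom.range_eq_map, P.range_subtype] at h2
  have hPconj : ∀ u ∈ P, ∀ x ∈ P, u * x * u⁻¹ ∈ P :=
    fun u hu x hx => P.mul_mem (P.mul_mem hu hx) (P.inv_mem hu)
  have hconj_comm : ∀ g : G, (∀ x ∈ P, g * x * g⁻¹ ∈ P) →
      ∀ x ∈ ⁅P, P⁆, g * x * g⁻¹ ∈ ⁅P, P⁆ := by
    intro g hg x hx
    have h1 : ⁅P, P⁆ ≤ (⁅P, P⁆).comap (MulAut.conj g).toMonoidHom := by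
      rw [Subgroup.commutator_le]
      intro u hu v hv
      rw [Subgroup.mem_comap]
      have : (MulAut.conj g).toMonoidHom ⁅u, v⁆ = ⁅g * u * g⁻¹, g * v * g⁻¹⁆ := by
        simp only [commutatorElement_def, MulEquiv.toMonoidHom_eq_coe, MonoidHom.coe_coe,
          MulAut.conj_apply]
        group
      rw [this]
      exact Subgroup.commutator_mem_commutator (hg u hu) (hg v hv)
    simpa using h1 hx
  obtain ⟨hC1, hC2⟩ := hcent ⁅P, P⁆ hlt.le hlt.ne (fun g hg => hconj_comm g (hTP g hg))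
    (fun u hu => hconj_comm u (hPconj u hu))
  have hcomm_mem : ∀ u ∈ P, ∀ v ∈ P, u * v * u⁻¹ * v⁻¹ ∈ ⁅P, P⁆ := by
    intro u hu v hv
    rw [← commutatorElement_def]
    exact Subgroup.commutator_mem_commutator hu hv
  set Q0 : Subgroup G := Subgroup.closure {w | ∃ u ∈ P, w = u ^ a} with hQ0
  have hQ0P : Q0 ≤ P := by
    rw [hQ0, Subgroup.closure_le]
    rintro w ⟨u, hu, rfl⟩
    exact P.pow_mem hu a
  have hQ0ne : Q0 ≠ P := by
    obtain ⟨k, hk⟩ := IsPGroup.iff_card.mp hP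
    have hk0 : k ≠ 0 := by
      rintro rfl
      rw [pow_zero] at hk
      exact hPne (Subgroup.card_eq_one.mp hk)
    obtain ⟨M, hM⟩ := Sylow.exists_subgroup_card_pow_prime (G := P) a (n := k - 1)
      (by rw [hk]; exact pow_dvd_pow a (Nat.sub_le k 1))
    have hidx : M.index = a := by
      have h1 := M.card_mul_index
      rw [hM, hk] at h1
      have h2 : a ^ k = a ^ (k - 1) * a := by
        rw [← pow_succ]; congr 1; omega
      rw [h2] at h1
      exact Nat.eq_of_mul_eq_mul_left (pow_pos ha.pos _) h1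
    have hMn : M.Normal := by
      apply Subgroup.normal_of_index_eq_minFac_card
      rw [hidx, hk, ha.pow_minFac hk0]
    have hpowM : ∀ u : P, u ^ a ∈ M := by
      intro u
      have := M.pow_index_mem u
      rwa [hidx] at this
    have hle : Q0 ≤ M.map P.subtype := by
      rw [hQ0, Subgroup.closure_le]
      rintro w ⟨u, hu, rfl⟩
      exact ⟨⟨u, hu⟩ ^ a, hpowM ⟨u, hu⟩, by simp⟩
    intro hEq
    have h1 : Nat.card Q0 ≤ Nat.card (M.map P.subtype) := Subgroup.card_le_of_le hle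
    rw [Subgroup.card_map_of_injective P.subtype_injective, hM, hEq, hk] at h1
    exact absurd h1 (not_le.mpr (Nat.pow_lt_pow_right ha.one_lt (by omega)))
  have hconj_Q0 : ∀ g : G, (∀ x ∈ P, g * x * g⁻¹ ∈ P) → ∀ x ∈ Q0, g * x * g⁻¹ ∈ Q0 := by
    intro g hg
    apply conj_closure_mem
    rintro w ⟨u, hu, rfl⟩
    rw [← conj_pow]
    exact Subgroup.subset_closure ⟨_, hg u hu, rfl⟩
  obtain ⟨hQ1, hQ2⟩ := hcent Q0 hQ0P hQ0ne (fun g hg => hconj_Q0 g (hTP g hg))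
    (fun u hu => hconj_Q0 u (hPconj u hu))
  have hpowQ : ∀ u ∈ P, u ^ a ∈ Q0 := fun u hu => Subgroup.subset_closure ⟨u, hu, rfl⟩
  have hdvd : a ∣ a.choose 2 :=
    ha.dvd_choose_self (by norm_num) (by have := ha.two_le; omega)
  have hpow_mul : ∀ u ∈ P, ∀ v ∈ P, (u * v) ^ a = u ^ a * v ^ a := by
    intro u hu v hv
    have hzC : v * u * v⁻¹ * u⁻¹ ∈ ⁅P, P⁆ := hcomm_mem v hv u hu
    have hzu : Commute (v * u * v⁻¹ * u⁻¹) u := hC2 _ hzC u hu
    have hzv : Commute (v * u * v⁻¹ * u⁻¹) v := hC2 _ hzC v hv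
    have hvu : v * u = (v * u * v⁻¹ * u⁻¹) * u * v := by group
    have hza : (v * u * v⁻¹ * u⁻¹) ^ a = 1 := by
      have h1 := class2_swap u v _ hvu hzv a
      have h2 : v ^ a * u = u * v ^ a := hQ2 _ (hpowQ v hv) u hu
      rw [h2] at h1
      have h3 : (v * u * v⁻¹ * u⁻¹) ^ a * (u * v ^ a) = 1 * (u * v ^ a) := by
        rw [one_mul, ← mul_assoc]; exact h1.symm
      exact mul_right_cancel h3
    have h4 := class2_pow u v _ hvu hzu hzv a
    obtain ⟨m, hm⟩ := hdvd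
    rw [h4, hm, pow_mul, hza, one_pow, one_mul]
  let K : Subgroup G :=
    { carrier := {w | w ∈ P ∧ w ^ a = 1}
      mul_mem' := by
        rintro x1 x2 ⟨h1, h1'⟩ ⟨h2, h2'⟩
        exact ⟨P.mul_mem h1 h2, by rw [hpow_mul _ h1 _ h2, h1', h2', one_mul]⟩
      one_mem' := ⟨P.one_mem, one_pow _⟩
      inv_mem' := by
        rintro x ⟨h1, h1'⟩
        exact ⟨P.inv_mem h1, by rw [inv_pow, h1', inv_one]⟩ }
  have hK : ∀ u ∈ P, u * y * u⁻¹ * y⁻¹ ∈ K := by
    intro u hu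
    refine ⟨hcP u hu, ?_⟩
    have hu' : y * u⁻¹ * y⁻¹ ∈ P := hyP _ (P.inv_mem hu)
    have e : u * y * u⁻¹ * y⁻¹ = u * (y * u⁻¹ * y⁻¹) := by group
    have e2 : y * u⁻¹ ^ a = u⁻¹ ^ a * y := hQ1 _ (hpowQ _ (P.inv_mem hu))
    rw [e, hpow_mul u hu _ hu', conj_pow, e2, inv_pow]
    group
  have hPK := hgen K hK
  refine ⟨fun u hu => (hPK hu).2, ?_, ?_, hgen⟩
  · intro u hu v hv w hw
    exact hC2 _ (hcomm_mem u hu v hv) w hw
  · intro u hu v hv
    exact hC1 _ (hcomm_mem u hu v hv)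

end Cfsg.Agent.Lib.Helper37.FP
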