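import Mathlib
import Cfsg.Agent.Lib.Helper46.FP.Defs
import Cfsg.Agent.Lib.Helper46.FP.LemYGlue
import Cfsg.Agent.Lib.Helper46.FP.LemYFinal
import Cfsg.Agent.Lib.Helper37.FP.LemYStruct

set_option autoImplicit false

/-!
# S3814 (coordinator helper46): `LemY` closed

`ly1` restates `lemY_struct` as helper46's `LY1`; `lemY` glues it with helper46's `lemY_final`.
-/

namespace Cfsg.Agent.Lib.Helper37.FP

universe u

theorem ly1 : Cfsg.Agent.Lib.Helper46.FP.LY1.{u} := by
  intro G _ _ a b ha hb hab ha2 P hP y hy T hyT hTP hTy hmin hnc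
  exact lemY_struct a b ha hb hab ha2 P hP y hy T hyT hTP hTy hmin hnc

theorem lemY : Cfsg.Agent.Lib.Helper46.FP.LemY.{u} :=
  Cfsg.Agent.Lib.Helper46.FP.lemY_of_LY ly1 Cfsg.Agent.Lib.Helper46.FP.lemY_final

end Cfsg.Agent.Lib.Helper37.FP
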