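import Mathlib
import Cfsg.Agent.Lib.Helper46.FP.Defs
import Cfsg.Agent.Lib.Helper37.FP.BFC1a

set_option autoImplicit false

/-!
# S3814 team project (coordinator helper46): the claim (**) as a separate lemma

A solvable `{q, r}`-group `L` with `q r ∣ |L|`, acting on an abelian group `W ≠ 1` of exponent
`t` (`t` a prime different from `q`, `r`) such that every nontrivial element of `L` is
fixed-point-free on `W`, has an element of order `q * r`.
-/

namespace Cfsg.Agent.Lib.Helper37.FP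

universe u

theorem exists_orderOf_qr {G : Type u} [Group G] [Finite G] {L W : Subgroup G} {t : ℕ}
    (ht : t.Prime) (hLsolv : Group.IsSolvable L)
    (hLW : ∀ l ∈ L, ∀ w ∈ W, l * w * l⁻¹ ∈ W)
    (hWab : ∀ w ∈ W, ∀ w' ∈ W, w * w' = w' * w)
    (hexp : ∀ w ∈ W, w ^ t = 1) (hWne : W ≠ ⊥)
    (hfpf : ∀ l ∈ L, l ≠ 1 → ∀ w ∈ W, l * w = w * l → w = 1)
    {q r : ℕ} (hq : q.Prime) (hr : r.Prime) (hqr : q ≠ r) (hqt : q ≠ t) (hrt : r ≠ t)
    (hqL : q ∣ Nat.card L) (hrL : r ∣ Nat.card L)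
    (hL : ∀ s : ℕ, s.Prime → s ∣ Nat.card L → s = q ∨ s = r) :
    ∃ g ∈ L, orderOf g = q * r := by
  haveI : Fact t.Prime := ⟨ht⟩
  -- `W` is a `t`-group
  have hWp : IsPGroup t W := by
    intro w
    refine ⟨1, ?_⟩
    apply Subtype.ext
    rw [pow_one]
    exact hexp w w.2
  have hWnd : ∀ s : ℕ, s.Prime → s ≠ t → ¬ s ∣ Nat.card W := by
    intro s hs hst h
    obtain ⟨m, hm⟩ := hWp.exists_card_eq
    rw [hm] at h
    exact hst ((Nat.prime_dvd_prime_iff_eq hs ht).1 (hs.dvd_of_dvd_pow h))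
  have hWsolv : Group.IsSolvable W :=
    Group.isSolvable_of_comm (fun a b => Subtype.ext (hWab a a.2 b b.2))
  haveI : Nontrivial ↥L := by
    rw [← Finite.one_lt_card_iff_nontrivial]
    exact lt_of_lt_of_le hq.one_lt (Nat.le_of_dvd Nat.card_pos hqL)
  obtain ⟨Q, s, k, hQn, hQc, hs, hk, hQcard⟩ :=
    Cfsg.Agent.Lib.Helper1.exists_minNormal_pGroup ↥L
  have hsQ : s ∣ Nat.card Q := by rw [hQcard]; exact dvd_pow_self s hk.ne'
  have hsL : s ∣ Nat.card L := hsQ.trans (Subgroup.card_subgroup_dvd_card Q)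
  haveI : Fact s.Prime := ⟨hs⟩
  obtain ⟨n', hn'⟩ := exists_prime_orderOf_dvd_card' s hsQ
  obtain ⟨n, hn⟩ : ∃ n : G, n = ((n' : ↥L) : G) := ⟨_, rfl⟩
  have hnL : n ∈ L := by rw [hn]; exact (n' : ↥L).2
  have hon : orderOf n = s := by
    rw [hn, Subgroup.orderOf_coe, Subgroup.orderOf_coe]; exact hn'
  have hst : s ≠ t := by
    rcases hL s hs hsL with h | h
    · rw [h]; exact hqt
    · rw [h]; exact hrt
  have hnorm : ∀ l ∈ L, l * n * l⁻¹ ∈ Subgroup.zpowers n := by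
    intro l hl
    by_contra hcon
    have hn2Q : (⟨l, hl⟩ : ↥L) * (n' : ↥L) * (⟨l, hl⟩ : ↥L)⁻¹ ∈ Q := hQn.conj_mem _ n'.2 _
    have hcomm : n * (l * n * l⁻¹) = (l * n * l⁻¹) * n := by
      have h1 : n' * (⟨_, hn2Q⟩ : ↥Q) = (⟨_, hn2Q⟩ : ↥Q) * n' := hQc.is_comm.comm n' ⟨_, hn2Q⟩
      have h2 := congrArg (fun a : ↥Q => ((a : ↥L) : G)) h1
      rw [hn]
      exact h2
    have ho2 : orderOf (l * n * l⁻¹) = s := by rw [orderOf_conj_eq, hon]
    have hl2 : l * n * l⁻¹ ∈ L := L.mul_mem (L.mul_mem hl hnL) (L.inv_mem hl)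
    obtain ⟨e, he, he1, w, hw, hw1, hew⟩ := tool_T1 hs hon ho2 hcomm hcon hWne
      (hWnd s hs hst) hWsolv (hLW n hnL) (hLW _ hl2)
    have heL : e ∈ L := by
      have hle : Subgroup.closure ({n, l * n * l⁻¹} : Set G) ≤ L := by
        rw [Subgroup.closure_le]
        intro g hg
        rcases hg with rfl | rfl
        · exact hnL
        · exact hl2
      exact hle he
    exact hw1 (hfpf e heL he1 w hw hew)
  have hcopt : s.Coprime t := (Nat.coprime_primes hs ht).2 hst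
  rcases hL s hs hsL with h | h
  · have hon' : orderOf n = q := by rw [hon, h]
    exact exists_orderOf_mul hLW hWab hexp hWne hfpf hq hr hqr (h ▸ hcopt) hrL hnL hon' hnorm
  · have hon' : orderOf n = r := by rw [hon, h]
    obtain ⟨g, hg, hog⟩ := exists_orderOf_mul hLW hWab hexp hWne hfpf hr hq (Ne.symm hqr)
      (h ▸ hcopt) hqL hnL hon' hnorm
    exact ⟨g, hg, by rw [hog, mul_comm]⟩

end Cfsg.Agent.Lib.Helper37.FP
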