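import Mathlib
import Cfsg.Agent.Lib.Helper46.FP.Defs
import Cfsg.Agent.Lib.Helper37.FP.StarStar

set_option autoImplicit false

/-!
# S3814 team project (coordinator helper46): sub-lemma (SL1) `red_S` for P11

* `red_H3` : a finite solvable group with elements of three distinct prime orders
  `q1, q2, q3` has an element of order `q1 q2`, `q1 q3` or `q2 q3`.
* `red_S` : in a finite solvable group with elements of orders `p q_i` (`i = 1, 2, 3`) and
  without elements of order `p q_i q_j`, every element `x` of order `p` commutes with an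
  element of order `p` outside `⟨x⟩`.
-/

namespace Cfsg.Agent.Lib.Helper37.FP

universe u

theorem two_prime_pow_facts {s q r b c : ℕ} (hs : s.Prime) (hq : q.Prime) (hr : r.Prime)
    (hsq : s ≠ q) (hsr : s ≠ r) :
    ¬ s ∣ q ^ b * r ^ c ∧ ∀ l : ℕ, l.Prime → l ∣ q ^ b * r ^ c → l = q ∨ l = r := by
  have key : ∀ l : ℕ, l.Prime → l ∣ q ^ b * r ^ c → l = q ∨ l = r := by
    intro l hl h
    rcases (Nat.Prime.dvd_mul hl).1 h with h | h
    · exact Or.inl ((Nat.prime_dvd_prime_iff_eq hl hq).1 (hl.dvd_of_dvd_pow h))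
    · exact Or.inr ((Nat.prime_dvd_prime_iff_eq hl hr).1 (hl.dvd_of_dvd_pow h))
  refine ⟨?_, key⟩
  intro h
  rcases key s hs h with h | h
  · exact hsq h
  · exact hsr h

/-- core of (H3). -/
theorem H3_core {X : Type u} [Group X] [Finite X] [Group.IsSolvable X] {s q r : ℕ}
    (hs : s.Prime) (hq : q.Prime) (hr : r.Prime) (hsq : s ≠ q) (hsr : s ≠ r) (hqr : q ≠ r)
    (a m : ℕ) (hX : Nat.card X = s ^ a * m) (hsm : ¬ s ∣ m) (hqm : q ∣ m) (hrm : r ∣ m)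
    (hm : ∀ l : ℕ, l.Prime → l ∣ m → l = q ∨ l = r)
    (M : Subgroup X) (hMn : M.Normal) (hMne : M ≠ ⊥)
    (hMab : ∀ w ∈ M, ∀ w' ∈ M, w * w' = w' * w) (hMexp : ∀ w ∈ M, w ^ s = 1) :
    ∃ g : X, orderOf g = s * q ∨ orderOf g = s * r ∨ orderOf g = q * r := by
  obtain ⟨L, hL⟩ := Cfsg.Agent.Lib.Helper1.hall_exists (G := X) m (s ^ a)
    (by rw [hX, mul_comm])
    (Nat.Coprime.pow_right a ((Nat.Prime.coprime_iff_not_dvd hs).2 hsm).symm)
  by_cases hfix : ∃ l ∈ L, l ≠ 1 ∧ ∃ w ∈ M, w ≠ 1 ∧ l * w = w * l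
  · obtain ⟨l, hl, hl1, w, hw, hw1, hlw⟩ := hfix
    obtain ⟨s', i, hs', hsd, hsi⟩ := exists_pow_prime_order hl1
    have hs'm : s' ∣ m := by rw [← hL]; exact hsd.trans (orderOf_dvd_card_of_mem hl)
    haveI : Fact s.Prime := ⟨hs⟩
    have how : orderOf w = s := orderOf_eq_prime (hMexp w hw) hw1
    have hcomm : Commute w (l ^ i) := ((show Commute l w from hlw).pow_left i).symm
    have hs's : s ≠ s' := by
      rintro rfl
      exact hsm hs'm
    have hord : orderOf (w * l ^ i) = s * s' := by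
      rw [hcomm.orderOf_mul_eq_mul_orderOf_of_coprime (by
        rw [how, hsi]; exact (Nat.coprime_primes hs hs').2 hs's), how, hsi]
    rcases hm s' hs' hs'm with h | h
    · exact ⟨_, Or.inl (h ▸ hord)⟩
    · exact ⟨_, Or.inr (Or.inl (h ▸ hord))⟩
  · have hfpf : ∀ l ∈ L, l ≠ 1 → ∀ w ∈ M, l * w = w * l → w = 1 := by
      intro l hl hl1 w hw hlw
      by_contra hw1
      exact hfix ⟨l, hl, hl1, w, hw, hw1, hlw⟩
    obtain ⟨g, _, hog⟩ := exists_orderOf_qr (L := L) (W := M) hs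
      (inferInstance : Group.IsSolvable L) (fun l _ w hw => hMn.conj_mem w hw l) hMab hMexp
      hMne hfpf hq hr hqr (Ne.symm hsq) (Ne.symm hsr) (by rw [hL]; exact hqm)
      (by rw [hL]; exact hrm) (by rw [hL]; exact hm)
    exact ⟨g, Or.inr (Or.inr hog)⟩

/-- (H3). -/
theorem red_H3 {X : Type u} [Group X] [Finite X] [Group.IsSolvable X] {q1 q2 q3 : ℕ}
    (h1 : q1.Prime) (h2 : q2.Prime) (h3 : q3.Prime)
    (h12 : q1 ≠ q2) (h13 : q1 ≠ q3) (h23 : q2 ≠ q3)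
    (e1 : ∃ g : X, orderOf g = q1) (e2 : ∃ g : X, orderOf g = q2)
    (e3 : ∃ g : X, orderOf g = q3) :
    ∃ g : X, orderOf g = q1 * q2 ∨ orderOf g = q1 * q3 ∨ orderOf g = q2 * q3 := by
  have hpos : Nat.card X ≠ 0 := Nat.card_pos.ne'
  obtain ⟨a1, m1, hm1, hX1⟩ := Nat.exists_eq_pow_mul_and_not_dvd hpos q1 h1.one_lt.ne'
  have hm1pos : m1 ≠ 0 := by
    rintro rfl
    exact hm1 (dvd_zero _)
  obtain ⟨a2, m2, hm2, hX2⟩ := Nat.exists_eq_pow_mul_and_not_dvd hm1pos q2 h2.one_lt.ne'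
  have hm2pos : m2 ≠ 0 := by
    rintro rfl
    exact hm2 (dvd_zero _)
  obtain ⟨a3, m3, hm3, hX3⟩ := Nat.exists_eq_pow_mul_and_not_dvd hm2pos q3 h3.one_lt.ne'
  have c1 : ¬ q1 ∣ m3 := fun h => hm1 (by
    rw [hX2, hX3]; exact Dvd.dvd.mul_left (Dvd.dvd.mul_left h _) _)
  have c2 : ¬ q2 ∣ m3 := fun h => hm2 (by rw [hX3]; exact Dvd.dvd.mul_left h _)
  have hcard : Nat.card X = (q1 ^ a1 * q2 ^ a2 * q3 ^ a3) * m3 := by
    rw [hX1, hX2, hX3]; ring
  have hcop : (q1 ^ a1 * q2 ^ a2 * q3 ^ a3).Coprime m3 := by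
    apply Nat.Coprime.mul_left
    · apply Nat.Coprime.mul_left
      · exact Nat.Coprime.pow_left a1 ((Nat.Prime.coprime_iff_not_dvd h1).2 c1)
      · exact Nat.Coprime.pow_left a2 ((Nat.Prime.coprime_iff_not_dvd h2).2 c2)
    · exact Nat.Coprime.pow_left a3 ((Nat.Prime.coprime_iff_not_dvd h3).2 hm3)
  obtain ⟨C0, hC0⟩ := Cfsg.Agent.Lib.Helper1.hall_exists (G := X) _ m3 hcard hcop
  -- `q_i ∣ |C0|`
  have hdvd : ∀ q : ℕ, q.Prime → ¬ q ∣ m3 → (∃ g : X, orderOf g = q) → q ∣ Nat.card C0 := by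
    intro q hq hqm3 ⟨g, hg⟩
    have h : q ∣ Nat.card X := by rw [← hg]; exact orderOf_dvd_natCard g
    rw [hcard] at h
    rw [hC0]
    exact (Nat.Coprime.dvd_mul_right ((Nat.Prime.coprime_iff_not_dvd hq).2 hqm3)).1 h
  have d1 := hdvd q1 h1 c1 e1
  have d2 := hdvd q2 h2 c2 e2
  have d3 := hdvd q3 h3 hm3 e3
  haveI : Nontrivial ↥C0 := by
    rw [← Finite.one_lt_card_iff_nontrivial]
    exact lt_of_lt_of_le h1.one_lt (Nat.le_of_dvd Nat.card_pos d1)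
  obtain ⟨Q, hQn, hQne, hQmin⟩ := Cfsg.Agent.Lib.Helper1.exists_minNormal ↥C0
  haveI := hQn
  obtain ⟨hQc, s, hs, hQexp⟩ :=
    Cfsg.Agent.Lib.Helper1.minNormal_elementary Q inferInstance hQne hQmin
  have hQab : ∀ w ∈ Q, ∀ w' ∈ Q, w * w' = w' * w := by
    intro w hw w' hw'
    have h := hQc.is_comm.comm (⟨w, hw⟩ : ↥Q) ⟨w', hw'⟩
    exact congrArg Subtype.val h
  -- `s ∣ |C0|`
  have hsC : s ∣ Nat.card C0 := by
    obtain ⟨⟨w, hw⟩, hw1⟩ := (Subgroup.ne_bot_iff_exists_ne_one).1 hQne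
    haveI : Fact s.Prime := ⟨hs⟩
    have how : orderOf w = s := orderOf_eq_prime (hQexp w hw) (fun h => hw1 (Subtype.ext h))
    rw [← how]
    exact orderOf_dvd_natCard w
  have hs123 : s = q1 ∨ s = q2 ∨ s = q3 := by
    rw [hC0] at hsC
    rcases (Nat.Prime.dvd_mul hs).1 hsC with h | h
    · rcases (Nat.Prime.dvd_mul hs).1 h with h | h
      · exact Or.inl ((Nat.prime_dvd_prime_iff_eq hs h1).1 (hs.dvd_of_dvd_pow h))
      · exact Or.inr (Or.inl ((Nat.prime_dvd_prime_iff_eq hs h2).1 (hs.dvd_of_dvd_pow h)))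
    · exact Or.inr (Or.inr ((Nat.prime_dvd_prime_iff_eq hs h3).1 (hs.dvd_of_dvd_pow h)))
  have hcoe : ∀ (g : ↥C0) (n : ℕ), orderOf g = n → orderOf (g : X) = n := by
    intro g n hg
    rw [Subgroup.orderOf_coe]; exact hg
  -- `q ∣ m` from `q ∣ s^a * m`
  have hdvd' : ∀ (q s a m : ℕ), q.Prime → s.Prime → q ≠ s → q ∣ s ^ a * m → q ∣ m := by
    intro q s a m hq hs hqs h
    exact (Nat.Coprime.dvd_mul_left (Nat.Coprime.pow_right a ((Nat.coprime_primes hq hs).2 hqs))).1 h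
  rcases hs123 with h | h | h
  · -- `s = q1`
    rw [h] at hQexp
    have hcard1 : Nat.card C0 = q1 ^ a1 * (q2 ^ a2 * q3 ^ a3) := by rw [hC0]; ring
    obtain ⟨hn, hl⟩ := two_prime_pow_facts (b := a2) (c := a3) h1 h2 h3 h12 h13
    obtain ⟨g, hg⟩ := H3_core (X := ↥C0) h1 h2 h3 h12 h13 h23 a1 _ hcard1 hn
      (hdvd' q2 q1 a1 _ h2 h1 (Ne.symm h12) (hcard1 ▸ d2))
      (hdvd' q3 q1 a1 _ h3 h1 (Ne.symm h13) (hcard1 ▸ d3)) hl Q hQn hQne hQab hQexp
    refine ⟨(g : X), ?_⟩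
    rcases hg with hg | hg | hg
    · exact Or.inl (hcoe g _ hg)
    · exact Or.inr (Or.inl (hcoe g _ hg))
    · exact Or.inr (Or.inr (hcoe g _ hg))
  · -- `s = q2`
    rw [h] at hQexp
    have hcard1 : Nat.card C0 = q2 ^ a2 * (q1 ^ a1 * q3 ^ a3) := by rw [hC0]; ring
    obtain ⟨hn, hl⟩ := two_prime_pow_facts (b := a1) (c := a3) h2 h1 h3 (Ne.symm h12) h23
    obtain ⟨g, hg⟩ := H3_core (X := ↥C0) h2 h1 h3 (Ne.symm h12) h23 h13 a2 _ hcard1 hn
      (hdvd' q1 q2 a2 _ h1 h2 h12 (hcard1 ▸ d1))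
      (hdvd' q3 q2 a2 _ h3 h2 (Ne.symm h23) (hcard1 ▸ d3)) hl Q hQn hQne hQab hQexp
    refine ⟨(g : X), ?_⟩
    rcases hg with hg | hg | hg
    · exact Or.inl (by rw [mul_comm]; exact hcoe g _ hg)
    · exact Or.inr (Or.inr (hcoe g _ hg))
    · exact Or.inr (Or.inl (hcoe g _ hg))
  · -- `s = q3`
    rw [h] at hQexp
    have hcard1 : Nat.card C0 = q3 ^ a3 * (q1 ^ a1 * q2 ^ a2) := by rw [hC0]; ring
    obtain ⟨hn, hl⟩ := two_prime_pow_facts (b := a1) (c := a2) h3 h1 h2 (Ne.symm h13)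
      (Ne.symm h23)
    obtain ⟨g, hg⟩ := H3_core (X := ↥C0) h3 h1 h2 (Ne.symm h13) (Ne.symm h23) h12 a3 _ hcard1 hn
      (hdvd' q1 q3 a3 _ h1 h3 h13 (hcard1 ▸ d1))
      (hdvd' q2 q3 a3 _ h2 h3 h23 (hcard1 ▸ d2)) hl Q hQn hQne hQab hQexp
    refine ⟨(g : X), ?_⟩
    rcases hg with hg | hg | hg
    · exact Or.inr (Or.inl (by rw [mul_comm]; exact hcoe g _ hg))
    · exact Or.inr (Or.inr (by rw [mul_comm]; exact hcoe g _ hg))
    · exact Or.inl (hcoe g _ hg)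

/-- (SL1). -/
theorem red_S {G : Type u} [Group G] [Finite G] (hsolv : Group.IsSolvable G)
    (p q1 q2 q3 : ℕ) (hp : p.Prime) (h1 : q1.Prime) (h2 : q2.Prime) (h3 : q3.Prime)
    (hp1 : p ≠ q1) (hp2 : p ≠ q2) (hp3 : p ≠ q3)
    (h12 : q1 ≠ q2) (h13 : q1 ≠ q3) (h23 : q2 ≠ q3)
    (e1 : ∃ g : G, orderOf g = p * q1) (e2 : ∃ g : G, orderOf g = p * q2)
    (e3 : ∃ g : G, orderOf g = p * q3)
    (n12 : ∀ g : G, orderOf g ≠ p * q1 * q2) (n13 : ∀ g : G, orderOf g ≠ p * q1 * q3)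
    (n23 : ∀ g : G, orderOf g ≠ p * q2 * q3)
    (x : G) (hx : orderOf x = p) :
    ∃ y : G, orderOf y = p ∧ x * y = y * x ∧ y ∉ Subgroup.zpowers x := by
  haveI : Fact p.Prime := ⟨hp⟩
  by_contra hcon
  have hcon' : ∀ y : G, orderOf y = p → x * y = y * x → y ∈ Subgroup.zpowers x := by
    intro y hy hxy
    by_contra h
    exact hcon ⟨y, hy, hxy, h⟩
  have hne1 : ∀ y : G, orderOf y = p → y ≠ 1 := by
    intro y hy h
    rw [h, orderOf_one] at hy
    exact hp.one_lt.ne hy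
  have hx1 : x ≠ 1 := hne1 x hx
  have hpg : ∀ y : G, orderOf y = p → IsPGroup p (Subgroup.zpowers y) := by
    intro y hy
    apply IsPGroup.of_card (n := 1)
    rw [Nat.card_zpowers, hy, pow_one]
  obtain ⟨P, hP⟩ := (hpg x hx).exists_le_sylow
  have hxP : x ∈ (P : Subgroup G) := hP (Subgroup.mem_zpowers x)
  haveI : Nontrivial ↥(P : Subgroup G) :=
    ⟨⟨⟨x, hxP⟩, 1, fun h => hx1 (congrArg Subtype.val h)⟩⟩
  have hcen : Nontrivial (Subgroup.center ↥(P : Subgroup G)) := P.2.center_nontrivial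
  have hpc : p ∣ Nat.card (Subgroup.center ↥(P : Subgroup G)) := by
    obtain ⟨k, hk⟩ := (P.2.to_subgroup (Subgroup.center _)).exists_card_eq
    have hk0 : k ≠ 0 := by
      rintro rfl
      rw [pow_zero] at hk
      exact (Finite.one_lt_card_iff_nontrivial.2 hcen).ne' hk
    rw [hk]
    exact dvd_pow_self p hk0
  obtain ⟨z', hz'⟩ := exists_prime_orderOf_dvd_card' p hpc
  obtain ⟨z, hz⟩ : ∃ z : G, z = ((z' : ↥(P : Subgroup G)) : G) := ⟨_, rfl⟩
  have hoz : orderOf z = p := by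
    rw [hz, Subgroup.orderOf_coe, Subgroup.orderOf_coe]; exact hz'
  have hzP : ∀ y ∈ (P : Subgroup G), z * y = y * z := by
    intro y hy
    have h := Subgroup.mem_center_iff.1 z'.2 ⟨y, hy⟩
    rw [hz]
    exact (congrArg Subtype.val h).symm
  have hzx : z ∈ Subgroup.zpowers x := hcon' z hoz (hzP x hxP).symm
  have hxz : x ∈ Subgroup.zpowers z :=
    mem_zpowers_of_prime_order (by rw [hx]; exact hp) hzx (hne1 z hoz)
  have hxPc : ∀ y ∈ (P : Subgroup G), x * y = y * x := by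
    intro y hy
    obtain ⟨i, hi⟩ := Subgroup.mem_zpowers_iff.1 hxz
    rw [← hi]
    exact ((show Commute z y from hzP y hy).zpow_left i).eq
  have hPx : ∀ y ∈ (P : Subgroup G), orderOf y = p → y ∈ Subgroup.zpowers x :=
    fun y hy hoy => hcon' y hoy (hxPc y hy)
  -- every element of order `p` is conjugate into `⟨x⟩`
  have hconj : ∀ x' : G, orderOf x' = p → ∃ g : G, g⁻¹ * x' * g ∈ Subgroup.zpowers x := by
    intro x' hx'
    obtain ⟨P', hP'⟩ := (hpg x' hx').exists_le_sylow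
    obtain ⟨g, hg⟩ := MulAction.exists_smul_eq G P P'
    have hx'P' : x' ∈ (P' : Subgroup G) := hP' (Subgroup.mem_zpowers x')
    rw [← hg, Sylow.coe_subgroup_smul, Subgroup.mem_pointwise_smul_iff_inv_smul_mem,
      MulAut.smul_def, MulAut.conj_inv_apply] at hx'P'
    refine ⟨g, hPx _ hx'P' ?_⟩
    have h := orderOf_conj_eq g⁻¹ x'
    rw [inv_inv] at h
    rw [h, hx']
  -- `x` commutes with an element of order `q`
  have hq : ∀ q : ℕ, q.Prime → p ≠ q → (∃ g : G, orderOf g = p * q) →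
      ∃ y : G, orderOf y = q ∧ x * y = y * x := by
    intro q hqp hpq ⟨g0, hg0⟩
    have ho1 : orderOf (g0 ^ q) = p := by
      rw [orderOf_pow_of_dvd hqp.ne_zero (by rw [hg0]; exact Dvd.intro_left p rfl), hg0,
        Nat.mul_div_cancel _ hqp.pos]
    have ho2 : orderOf (g0 ^ p) = q := by
      rw [orderOf_pow_of_dvd hp.ne_zero (by rw [hg0]; exact Dvd.intro q rfl), hg0,
        Nat.mul_div_cancel_left _ hp.pos]
    obtain ⟨g, hg⟩ := hconj (g0 ^ q) ho1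
    have hu1 : g⁻¹ * g0 ^ q * g ≠ 1 := by
      apply hne1
      have h := orderOf_conj_eq g⁻¹ (g0 ^ q)
      rw [inv_inv] at h
      rw [h, ho1]
    have hxu : x ∈ Subgroup.zpowers (g⁻¹ * g0 ^ q * g) :=
      mem_zpowers_of_prime_order (by rw [hx]; exact hp) hg hu1
    refine ⟨g⁻¹ * g0 ^ p * g, ?_, ?_⟩
    · have h := orderOf_conj_eq g⁻¹ (g0 ^ p)
      rw [inv_inv] at h
      rw [h, ho2]
    · obtain ⟨i, hi⟩ := Subgroup.mem_zpowers_iff.1 hxu
      rw [← hi]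
      have hc0 : Commute (g0 ^ q) (g0 ^ p) := ((Commute.refl g0).pow_left q).pow_right p
      have hc1 : Commute (g⁻¹ * g0 ^ q * g) (g⁻¹ * g0 ^ p * g) := by
        have e : ∀ a b : G, (g⁻¹ * a * g) * (g⁻¹ * b * g) = g⁻¹ * (a * b) * g := by
          intro a b; group
        show (g⁻¹ * g0 ^ q * g) * (g⁻¹ * g0 ^ p * g) = (g⁻¹ * g0 ^ p * g) * (g⁻¹ * g0 ^ q * g)
        rw [e, e, hc0.eq]
      exact (hc1.zpow_left i).eq
  obtain ⟨y1, hy1, hxy1⟩ := hq q1 h1 hp1 e1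
  obtain ⟨y2, hy2, hxy2⟩ := hq q2 h2 hp2 e2
  obtain ⟨y3, hy3, hxy3⟩ := hq q3 h3 hp3 e3
  have hmem : ∀ y : G, x * y = y * x → y ∈ Subgroup.centralizer ({x} : Set G) :=
    fun y h => Subgroup.mem_centralizer_singleton_iff.2 h.symm
  have hex : ∀ (y : G) (q : ℕ), orderOf y = q → x * y = y * x →
      ∃ g : ↥(Subgroup.centralizer ({x} : Set G)), orderOf g = q := by
    intro y q hy hxy
    exact ⟨⟨y, hmem y hxy⟩, by rw [Subgroup.orderOf_mk]; exact hy⟩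
  obtain ⟨g, hg⟩ := red_H3 (X := ↥(Subgroup.centralizer ({x} : Set G))) h1 h2 h3 h12 h13 h23
    (hex y1 q1 hy1 hxy1) (hex y2 q2 hy2 hxy2) (hex y3 q3 hy3 hxy3)
  have hgx : Commute x (g : G) := (Subgroup.mem_centralizer_singleton_iff.1 g.2).symm
  have hfin : ∀ (q q' : ℕ), q.Prime → q'.Prime → p ≠ q → p ≠ q' → orderOf g = q * q' →
      orderOf (x * (g : G)) = p * q * q' := by
    intro q q' hqp hq'p hpq hpq' hog
    have hog' : orderOf (g : G) = q * q' := by rw [Subgroup.orderOf_coe]; exact hog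
    rw [hgx.orderOf_mul_eq_mul_orderOf_of_coprime (by
      rw [hx, hog']
      exact Nat.Coprime.mul_right ((Nat.coprime_primes hp hqp).2 hpq)
        ((Nat.coprime_primes hp hq'p).2 hpq')), hx, hog', mul_assoc]
  rcases hg with hg | hg | hg
  · exact n12 _ (hfin q1 q2 h1 h2 hp1 hp2 hg)
  · exact n13 _ (hfin q1 q3 h1 h3 hp1 hp3 hg)
  · exact n23 _ (hfin q2 q3 h2 h3 hp2 hp3 hg)

end Cfsg.Agent.Lib.Helper37.FP
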